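import Cfsg.Agent.OmegaSevenCover.ThreeData

/-!
The eight linear maps carry the vectors of the points as the monomial generators do.
-/

set_option autoImplicit false
set_option maxRecDepth 100000

namespace Cfsg.Agent.OmegaSevenCover

open Cfsg.Agent.CosetCert

/-- A bit of a number. -/
def bitB (n k : ℕ) : Bool := Nat.beq (Nat.mod (Nat.shiftRight n k) 2) 1

/-- An image of a basis vector. -/
def colN (A : ℕ) (k : ℕ) : ℕ := Nat.mod (Nat.shiftRight A (Nat.mul 54 k)) (Nat.shiftLeft 1 54)

/-- The sum of the selected images. -/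
def xs (A B n : ℕ) (m : ℕ) : ℕ :=
  Nat.rec 0 (fun k acc => Nat.xor (Nat.xor acc (cond (bitB n k) (colN A k) 0))
    (cond (bitB n (Nat.add 27 k)) (colN B k) 0)) m

/-- One point under one generator. -/
noncomputable def vecOK (T : PTree) (A B i : ℕ) : Bool :=
  let a := T.get 16 i
  Nat.beq (xs A B (vecT.get 54 (Nat.mul 3 i)) 27)
    (vecT.get 54 (Nat.add (Nat.mul 3 (Nat.div a 4)) (Nat.mod a 4)))

/-- All points under one generator. -/
noncomputable def allVecOK (j : ℕ) : Bool :=
  allB (fun i => Nat.ble 378 i || vecOK (genT.getD j (.leaf 0)) (colAT.getD j 0) (colBT.getD j 0) i) 9 0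

theorem vecOK0 : allVecOK 0 = true := by decide +kernel
theorem vecOK1 : allVecOK 1 = true := by decide +kernel
theorem vecOK2 : allVecOK 2 = true := by decide +kernel
theorem vecOK3 : allVecOK 3 = true := by decide +kernel
theorem vecOK4 : allVecOK 4 = true := by decide +kernel
theorem vecOK5 : allVecOK 5 = true := by decide +kernel
theorem vecOK6 : allVecOK 6 = true := by decide +kernel
theorem vecOK7 : allVecOK 7 = true := by decide +kernel

theorem vec_ok (j : Fin 8) (i : ℕ) (hi : i < 378) :
    xs (colAT.getD j 0) (colBT.getD j 0) (vecT.get 54 (3 * i)) 27 =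
      vecT.get 54 (3 * ((genT.getD j (.leaf 0)).get 16 i / 4) + (genT.getD j (.leaf 0)).get 16 i % 4) := by
  have h : allVecOK j = true := by
    fin_cases j
    · exact vecOK0
    · exact vecOK1
    · exact vecOK2
    · exact vecOK3
    · exact vecOK4
    · exact vecOK5
    · exact vecOK6
    · exact vecOK7
  have h1 := allB_spec_zero h (by norm_num : 378 ≤ 2 ^ 9) hi
  rw [Bool.or_eq_true] at h1
  exact Nat.eq_of_beq_eq_true
    (h1.resolve_left fun e => absurd (Nat.le_of_ble_eq_true e) (by omega))

end Cfsg.Agent.OmegaSevenCover
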