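import Cfsg.Agent.OmegaSevenCover.Points
import Cfsg.Agent.OmegaSevenCover.ThreeCheck
import Cfsg.Prelude.Def_KGroupFacts

/-!
The triple cover of the simple orthogonal group in dimension seven over three elements as a
monomial group on the points of value one.
-/

set_option autoImplicit false
set_option maxRecDepth 20000
set_option linter.style.haveILetI false

namespace Cfsg.Agent.OmegaSevenCover

open Cfsg.Agent.CosetCert
open Cfsg.Agent.O73 (K3 Ix)

/-- The shift of a generator at a point. -/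
noncomputable def fsh (j : Fin 8) (i : Fin 378) : K3 := ((genN j i % 4 : ℕ) : K3)

/-- A monomial lift of a generator. -/
noncomputable def lift3 (j : Fin 8) : Equiv.Perm (Fin 378 × K3) :=
  Equiv.prodShear (pointHom (negR j)) fun i => Equiv.addRight (fsh j i)

theorem lift3_apply (j : Fin 8) (i : Fin 378) (c : K3) :
    lift3 j (i, c) = (pointHom (negR j) i, c + fsh j i) := rfl

/-- The generators of the cover. -/
noncomputable def gen3 (j : Fin 8) : Equiv.Perm (Fin 378 × K3) × OmG := (lift3 j, negR j)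

/-- The cover. -/
noncomputable def Cov3 : Subgroup (Equiv.Perm (Fin 378 × K3) × OmG) :=
  Subgroup.closure (Set.range gen3)

/-- The shift of a permutation at a point. -/
def sh (p : Equiv.Perm (Fin 378 × K3)) (i : Fin 378) : K3 := (p (i, 0)).2

/-- A space of dimension 27 over four elements, as pairs over two elements. -/
abbrev V4 : Type := Fin 27 → ZMod 2 × ZMod 2

/-- The bit of a number in the field with two elements. -/
def bitZ (n k : ℕ) : ZMod 2 := cond (bitB n k) 1 0

/-- The vector of a number. -/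
def toV (n : ℕ) : V4 := fun k => (bitZ n k, bitZ n (27 + k))

/-- Multiplication by a generator of the multiplicative group of the field with four elements. -/
def om (x : ZMod 2 × ZMod 2) : ZMod 2 × ZMod 2 := (x.2, x.1 + x.2)

/-- Multiplication by a cube root of one. -/
def omPow (c : K3) (x : ZMod 2 × ZMod 2) : ZMod 2 × ZMod 2 :=
  if c = 0 then x else if c = 1 then om x else om (om x)

theorem omPow_add : ∀ (a b : K3) (x : ZMod 2 × ZMod 2), omPow a (omPow b x) = omPow (b + a) x := by
  decide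

/-- The vector of a point with a shift. -/
noncomputable def vec (i : Fin 378) (c : K3) : V4 := fun k => omPow c (toV (vecT.get 54 (3 * i)) k)

/-- The invariants of the elements of the cover. -/
def Good (x : Equiv.Perm (Fin 378 × K3) × OmG) : Prop :=
  (∀ i c, x.1 (i, c) = (pointHom x.2 i, c + sh x.1 i)) ∧
    ∃ L : V4 →+ V4, ∀ i c, L (vec i c) = vec (pointHom x.2 i) (c + sh x.1 i)

theorem good_one : Good 1 := by
  refine ⟨fun i c => ?_, AddMonoidHom.id _, fun i c => ?_⟩
  · simp [sh]
  · simp [sh]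

theorem good_mul {x y : Equiv.Perm (Fin 378 × K3) × OmG} (hx : Good x) (hy : Good y) :
    Good (x * y) := by
  have key : ∀ i c, (x.1 * y.1) (i, c) =
      (pointHom (x.2 * y.2) i, c + (sh y.1 i + sh x.1 (pointHom y.2 i))) := fun i c => by
    rw [Equiv.Perm.mul_apply, hy.1, hx.1, map_mul, Equiv.Perm.mul_apply, add_assoc]
  have hsh : ∀ i, sh (x.1 * y.1) i = sh y.1 i + sh x.1 (pointHom y.2 i) := fun i => by
    rw [sh, key, zero_add]
  obtain ⟨L, hL⟩ := hx.2
  obtain ⟨M, hM⟩ := hy.2
  refine ⟨fun i c => ?_, L.comp M, fun i c => ?_⟩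
  · rw [Prod.fst_mul, Prod.snd_mul, key, hsh]
  · rw [Prod.fst_mul, Prod.snd_mul, hsh, map_mul, Equiv.Perm.mul_apply, AddMonoidHom.comp_apply,
      hM, hL, add_assoc]

theorem sh_lift3 (j : Fin 8) (i : Fin 378) : sh (lift3 j) i = fsh j i := by
  rw [sh, lift3_apply, zero_add]

/-- The images of the basis vectors under a generator. -/
def colA (j : Fin 8) (k : ℕ) : V4 := toV (colN (colAT.getD j 0) k)

/-- The images of the multiples of the basis vectors under a generator. -/
def colB (j : Fin 8) (k : ℕ) : V4 := toV (colN (colBT.getD j 0) k)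

theorem colB_eq : ∀ (j : Fin 8) (k l : Fin 27), colB j k l = om (colA j k l) := by decide +kernel

/-- The linear map of a generator. -/
noncomputable def genL (j : Fin 8) : V4 →+ V4 :=
  AddMonoidHom.mk' (fun v => ∑ k : Fin 27, ((v k).1 • colA j k + (v k).2 • colB j k)) fun u v => by
    rw [← Finset.sum_add_distrib]
    exact Finset.sum_congr rfl fun k _ => by
      rw [Pi.add_apply, Prod.fst_add, Prod.snd_add, add_smul, add_smul]; abel

theorem genL_om (j : Fin 8) (v : V4) : genL j (fun k => om (v k)) = fun l => om (genL j v l) := by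
  funext l
  have hadd : ∀ a b : ZMod 2 × ZMod 2, om (a + b) = om a + om b := by decide
  let omH : ZMod 2 × ZMod 2 →+ ZMod 2 × ZMod 2 := AddMonoidHom.mk' om hadd
  show (∑ k : Fin 27, ((om (v k)).1 • colA j k + (om (v k)).2 • colB j k)) l =
    omH ((∑ k : Fin 27, ((v k).1 • colA j k + (v k).2 • colB j k)) l)
  rw [Finset.sum_apply, Finset.sum_apply, map_sum]
  refine Finset.sum_congr rfl fun k _ => ?_
  simp only [Pi.add_apply, Pi.smul_apply, colB_eq j k l]
  show _ = om _
  generalize v k = a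
  generalize colA j k l = b
  revert a b
  decide

theorem bitB_eq (n k : ℕ) : bitB n k = n.testBit k := by
  rw [Bool.eq_iff_iff, Nat.testBit_eq_decide_div_mod_eq, decide_eq_true_eq, bitB, Nat.beq_eq]
  show n >>> k % 2 = 1 ↔ n / 2 ^ k % 2 = 1
  rw [Nat.shiftRight_eq_div_pow]

theorem toV_xor (a b : ℕ) : toV (Nat.xor a b) = toV a + toV b := by
  have h : ∀ k, bitZ (Nat.xor a b) k = bitZ a k + bitZ b k := fun k => by
    simp only [bitZ, bitB_eq]
    show cond ((a ^^^ b).testBit k) _ _ = _
    rw [Nat.testBit_xor]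
    cases a.testBit k <;> cases b.testBit k <;> decide
  funext k
  exact Prod.ext (h _) (h _)

theorem toV_zero : toV 0 = 0 := by decide +kernel

theorem toV_xs (A B n : ℕ) : ∀ m, toV (xs A B n m) = ∑ k ∈ Finset.range m,
    (bitZ n k • toV (colN A k) + bitZ n (27 + k) • toV (colN B k)) := by
  have hc : ∀ (b : Bool) (c : ℕ), toV (cond b c 0) = (cond b (1 : ZMod 2) 0) • toV c := fun b c => by
    cases b <;> simp [toV_zero]
  intro m
  induction m with
  | zero => rw [Finset.sum_range_zero]; exact toV_zero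
  | succ m ih =>
    rw [Finset.sum_range_succ, ← ih]
    show toV (Nat.xor (Nat.xor (xs A B n m) _) _) = _
    rw [toV_xor, toV_xor, hc, hc, add_assoc]
    rfl

theorem vecT_rot : ∀ i : Fin 378, ∀ c : Fin 3, ∀ k : Fin 27,
    toV (vecT.get 54 (3 * i + c)) k = omPow ((c : ℕ) : K3) (toV (vecT.get 54 (3 * i)) k) := by
  decide +kernel

theorem genL_zero (j : Fin 8) (i : Fin 378) :
    genL j (vec i 0) = vec (pointHom (negR j) i) (fsh j i) := by
  have h : genL j (toV (vecT.get 54 (3 * i))) =
      toV (vecT.get 54 (3 * (genN j i / 4) + genN j i % 4)) := by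
    rw [show vecT.get 54 (3 * (genN j i / 4) + genN j i % 4) = _ from (vec_ok j i i.2).symm, toV_xs,
      ← Fin.sum_univ_eq_sum_range (fun k => bitZ (vecT.get 54 (3 * i)) k • toV (colN (colAT.getD j 0) k)
        + bitZ (vecT.get 54 (3 * i)) (27 + k) • toV (colN (colBT.getD j 0) k))]
    rfl
  have hlt : genN j i % 4 < 3 := by
    have h4 : ∀ j : Fin 8, ∀ i : Fin 378, genN j i % 4 < 3 := by decide +kernel
    exact h4 j i
  refine h.trans (funext fun k => ?_)
  rw [← pointHom_negR j i]
  exact vecT_rot (pointHom (negR j) i) ⟨_, hlt⟩ k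

theorem omPow_cases : ∀ c : K3, c = 0 ∨ c = 1 ∨ c = 2 := by decide

theorem genL_vec (j : Fin 8) (i : Fin 378) (c : K3) :
    genL j (vec i c) = vec (pointHom (negR j) i) (c + fsh j i) := by
  have h0 := genL_zero j i
  have h1 : genL j (vec i 1) = fun l => om (genL j (vec i 0) l) := genL_om j (vec i 0)
  rcases omPow_cases c with rfl | rfl | rfl
  · rw [h0, zero_add]
  · rw [h1, h0]
    funext l
    exact (omPow_add 1 (fsh j i) _).trans (by rw [add_comm]; rfl)
  · have h2 : genL j (vec i 2) = fun l => om (genL j (vec i 1) l) := genL_om j (vec i 1)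
    rw [h2, h1, h0]
    funext l
    exact (omPow_add 2 (fsh j i) _).trans (by rw [add_comm]; rfl)

theorem good_gen (j : Fin 8) : Good (gen3 j) := by
  refine ⟨fun i c => ?_, genL j, fun i c => ?_⟩
  · show lift3 j (i, c) = _
    rw [lift3_apply, show sh (gen3 j).1 i = fsh j i from sh_lift3 j i]
    rfl
  · show genL j (vec i c) = vec (pointHom (negR j) i) (c + sh (lift3 j) i)
    rw [sh_lift3]
    exact genL_vec j i c

theorem cov3_finite : Finite OmG := Nat.finite_of_card_ne_zero (by rw [card_OmG]; norm_num)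

theorem good_mem {x : Equiv.Perm (Fin 378 × K3) × OmG} (hx : x ∈ Cov3) : Good x := by
  haveI := cov3_finite
  rw [Cov3, ← Subgroup.mem_toSubmonoid, Subgroup.closure_toSubmonoid_of_finite] at hx
  induction hx using Submonoid.closure_induction with
  | one => exact good_one
  | mul a b _ _ ha hb => exact good_mul ha hb
  | mem p hp => obtain ⟨j, rfl⟩ := hp; exact good_gen j

/-- The point of a basis vector. -/
def basisPt (k : Fin 27) : Fin 378 := ⟨basisPts.getD k 0 % 378, Nat.mod_lt _ (Nat.succ_pos _)⟩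

theorem vec_basisPt : ∀ (c : K3) (k l : Fin 27),
    vec (basisPt k) c l = if l = k then omPow c (1, 0) else 0 := by
  decide +kernel

theorem vec_nonzero : (∀ k : Fin 27, toV (vecT.get 54 (3 * 105)) k ≠ 0) ∧
    ∀ i : Fin 378, ∃ k : Fin 27, toV (vecT.get 54 (3 * i)) k ≠ 0 := by
  decide +kernel

/-- An element over the identity is a constant shift. -/
theorem sh_const {x : Equiv.Perm (Fin 378 × K3) × OmG} (hx : x ∈ Cov3) (h1 : x.2 = 1)
    (i : Fin 378) : sh x.1 i = sh x.1 0 := by
  obtain ⟨L, hL⟩ := (good_mem hx).2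
  simp only [h1, map_one, Equiv.Perm.one_apply] at hL
  have hs : ∀ k (a : ZMod 2 × ZMod 2),
      L (Pi.single k a) = Pi.single k (omPow (sh x.1 (basisPt k)) a) := by
    intro k a
    rcases eq_or_ne a 0 with rfl | ha
    · have : ∀ d : K3, omPow d 0 = 0 := by decide
      rw [this, Pi.single_zero, map_zero]
    have hcov : ∀ a : ZMod 2 × ZMod 2, a ≠ 0 → ∃ c : K3, omPow c (1, 0) = a := by decide
    obtain ⟨c, rfl⟩ := hcov a ha
    have e : ∀ c : K3, (Pi.single k (omPow c (1, 0)) : V4) = vec (basisPt k) c := fun c => by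
      funext l
      rw [vec_basisPt, Pi.single_apply]
    rw [e, hL, omPow_add, e]
  have hcoord : ∀ (v : V4) (k : Fin 27), L v k = omPow (sh x.1 (basisPt k)) (v k) := by
    intro v k
    conv_lhs => rw [← Finset.univ_sum_single v, map_sum, Finset.sum_apply]
    rw [Finset.sum_eq_single k (fun b _ hb => by rw [hs, Pi.single_eq_of_ne (Ne.symm hb)])
      (fun h => absurd (Finset.mem_univ k) h), hs, Pi.single_eq_same]
  have hinj : ∀ (d e : K3) (a : ZMod 2 × ZMod 2), a ≠ 0 → omPow d a = omPow e a → d = e := by decide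
  have hmain : ∀ (i : Fin 378) (k : Fin 27), toV (vecT.get 54 (3 * i)) k ≠ 0 →
      sh x.1 (basisPt k) = sh x.1 i := fun i k hk => by
    have e := congrFun (hL i 0) k
    rw [hcoord, zero_add] at e
    exact hinj _ _ _ hk e
  have hall : ∀ i : Fin 378, sh x.1 i = sh x.1 105 := fun i => by
    obtain ⟨k, hk⟩ := vec_nonzero.2 i
    rw [← hmain i k hk, hmain 105 k (vec_nonzero.1 k)]
  rw [hall i, hall 0]

/-- The projection. -/
noncomputable def proj3 : Cov3 →* OmG := (MonoidHom.snd _ _).comp Cov3.subtype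

theorem proj3_surjective : Function.Surjective proj3 := by
  rw [← MonoidHom.range_eq_top, eq_top_iff, ← closure_negR, Subgroup.closure_le]
  rintro _ ⟨j, rfl⟩
  exact ⟨⟨gen3 j, Subgroup.subset_closure ⟨j, rfl⟩⟩, rfl⟩

theorem mem_ker3 {x : Cov3} (hx : x ∈ proj3.ker) (i : Fin 378) (c : K3) :
    x.1.1 (i, c) = (i, c + sh x.1.1 0) := by
  have h1 : x.1.2 = 1 := hx
  rw [(good_mem x.2).1, h1, map_one, Equiv.Perm.one_apply, sh_const x.2 h1]

theorem ker3_le_center : proj3.ker ≤ Subgroup.center Cov3 := by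
  intro x hx
  refine Subgroup.mem_center_iff.2 fun y => Subtype.ext (Prod.ext ?_ ?_)
  · refine Equiv.ext fun ⟨i, c⟩ => ?_
    show y.1.1 (x.1.1 (i, c)) = x.1.1 (y.1.1 (i, c))
    rw [mem_ker3 hx, (good_mem y.2).1, (good_mem y.2).1, mem_ker3 hx]
    exact Prod.ext rfl (add_right_comm _ _ _)
  · show y.1.2 * x.1.2 = x.1.2 * y.1.2
    rw [show x.1.2 = 1 from hx, mul_one, one_mul]

theorem ker3_ext {x y : Cov3} (hx : x ∈ proj3.ker) (hy : y ∈ proj3.ker)
    (h : sh x.1.1 0 = sh y.1.1 0) : x = y :=
  Subtype.ext (Prod.ext (Equiv.ext fun ⟨i, c⟩ => by rw [mem_ker3 hx, mem_ker3 hy, h])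
    ((show x.1.2 = 1 from hx).trans (show y.1.2 = 1 from hy).symm))

/-- A generator as an element of the cover. -/
noncomputable def cgen (j : Fin 8) : Cov3 := ⟨gen3 j, Subgroup.subset_closure ⟨j, rfl⟩⟩

/-- A word of the generators. -/
def zWord : List (Fin 8) := (List.replicate 10 ([7, 6, 1, 2, 3, 1, 0, 4, 2] : List (Fin 8))).flatten

/-- The element of the word. -/
noncomputable def zEl : Cov3 := (zWord.map cgen).prod

theorem zWord_one : zWord.foldr (fun j acc => SchurSmall.PackMat.mulCode 3 7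
      (SchurSmall.PackMat.enc O73.posEquiv
        (-SporB.FischerO.rowsMat (SporB.FischerO.matRows.getD j []))) acc)
      (SchurSmall.PackMat.enc O73.posEquiv (1 : Matrix Ix Ix K3)) =
    SchurSmall.PackMat.enc O73.posEquiv (1 : Matrix Ix Ix K3) := by
  decide +kernel

theorem proj3_word (w : List (Fin 8)) : SchurSmall.PackMat.enc O73.posEquiv (mG (proj3 (w.map cgen).prod)) =
    w.foldr (fun j acc => SchurSmall.PackMat.mulCode 3 7
      (SchurSmall.PackMat.enc O73.posEquiv
        (-SporB.FischerO.rowsMat (SporB.FischerO.matRows.getD j []))) acc)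
      (SchurSmall.PackMat.enc O73.posEquiv (1 : Matrix Ix Ix K3)) := by
  induction w with
  | nil => rfl
  | cons j w ih =>
    rw [List.map_cons, List.prod_cons, map_mul, mG_mul, show proj3 (cgen j) = negR j from rfl,
      SchurSmall.PackMat.enc_mul _ (by norm_num), ih, mG_negR]
    rfl

theorem zEl_ker : zEl ∈ proj3.ker := by
  refine mG_injective (SchurSmall.PackMat.enc_injective O73.posEquiv (by norm_num : (3 : ℕ) ≤ 32) ?_)
  rw [zEl, proj3_word, zWord_one]
  rfl

/-- The action of a generator, computed. -/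
noncomputable def stepN (j : Fin 8) (x : ℕ × ℕ) : ℕ × ℕ :=
  (genN j x.1 / 4, (x.2 + genN j x.1 % 4) % 3)

theorem word_apply (w : List (Fin 8)) :
    (((w.map cgen).prod.1.1 ((0 : Fin 378), (0 : K3))).1 : ℕ) = (w.foldr stepN (0, 0)).1 ∧
      ((w.map cgen).prod.1.1 ((0 : Fin 378), (0 : K3))).2 = ((w.foldr stepN (0, 0)).2 : K3) := by
  induction w with
  | nil => exact ⟨rfl, Nat.cast_zero.symm⟩
  | cons j w ih =>
    rw [List.map_cons, List.prod_cons, List.foldr_cons]
    generalize hq : (w.map cgen).prod.1.1 ((0 : Fin 378), (0 : K3)) = q at ih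
    have e : (cgen j * (w.map cgen).prod).1.1 ((0 : Fin 378), (0 : K3)) = lift3 j (q.1, q.2) := by
      rw [Prod.mk.eta, ← hq]; rfl
    rw [e, lift3_apply, pointHom_negR, fsh, ih.1, ih.2]
    exact ⟨rfl, by show _ = (((_ + _) % 3 : ℕ) : K3); rw [ZMod.natCast_mod]; push_cast; rfl⟩

theorem sh_zEl : sh zEl.1.1 0 ≠ 0 := by
  have h : ((zWord.foldr stepN (0, 0)).2 : K3) ≠ 0 := by decide +kernel
  rw [sh, zEl, (word_apply zWord).2]
  exact h

theorem zEl_mem_commutator : zEl ∈ commutator Cov3 := by
  rw [← Abelianization.ker_of, MonoidHom.mem_ker, zEl, map_list_prod, List.map_map, zWord,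
    List.map_flatten, List.map_replicate, List.prod_flatten, List.map_replicate, List.prod_replicate,
    show 10 = 2 * 5 by norm_num, pow_mul]
  have hsq : ∀ j : Fin 8, (Abelianization.of (cgen j)) ^ 2 = 1 := fun j => by
    rw [← map_pow]
    have : (cgen j) ^ 2 = 1 := by
      have hker : (cgen j) ^ 2 ∈ proj3.ker := by
        rw [MonoidHom.mem_ker, map_pow]
        show negR j ^ 2 = 1
        refine mG_injective ?_
        rw [pow_two, mG_mul, mG_negR, neg_mul_neg]
        exact SporB.FischerO.rowsMat_sq j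
      refine ker3_ext hker (one_mem _) ?_
      have h : ∀ j : Fin 8, genN j (genN j 0 / 4) / 4 = 0 ∧
          (genN j 0 % 4 + genN j (genN j 0 / 4) % 4) % 3 = 0 := by decide +kernel
      rw [sh, pow_two]
      show (lift3 j (lift3 j ((0 : Fin 378), (0 : K3)))).2 = (0 : K3)
      rw [lift3_apply, lift3_apply, fsh, fsh, pointHom_negR, zero_add, ← Nat.cast_add]
      show ((genN j 0 % 4 + genN j (genN j 0 / 4) % 4 : ℕ) : K3) = 0
      rw [← ZMod.natCast_mod, (h j).2, Nat.cast_zero]
    rw [this, map_one]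
  simp [mul_pow, hsq]

theorem exists_stem_three :
    ∃ (W : Type) (_ : Group W) (_ : Finite W) (σ : W →* OmG),
      Cfsg.IsStemExtension σ ∧ Nat.card σ.ker = 3 := by
  haveI := cov3_finite
  have hmem : ∀ x ∈ proj3.ker, ∃ n < 3, x = zEl ^ n := by
    intro x hx
    have hs : ∀ n : ℕ, sh (zEl ^ n).1.1 0 = (n : K3) * sh zEl.1.1 0 := by
      intro n
      induction n with
      | zero => rw [pow_zero, Nat.cast_zero, zero_mul]; rfl
      | succ n ih =>
        rw [pow_succ, sh]
        show ((zEl ^ n).1.1 (zEl.1.1 (0, 0))).2 = _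
        rw [mem_ker3 zEl_ker, mem_ker3 (pow_mem zEl_ker n), ih, Nat.cast_succ, add_mul, one_mul,
          zero_add, add_comm]
    have key : ∀ a b : K3, b ≠ 0 → ∃ n : Fin 3, a = ((n : ℕ) : K3) * b := by decide
    obtain ⟨n, hn⟩ := key (sh x.1.1 0) _ sh_zEl
    exact ⟨n, n.2, ker3_ext hx (pow_mem zEl_ker _) (hn.trans (hs n).symm)⟩
  have hker : proj3.ker = Subgroup.zpowers zEl :=
    le_antisymm (fun x hx => by obtain ⟨n, -, rfl⟩ := hmem x hx; exact Subgroup.npow_mem_zpowers _ n)
      (Subgroup.zpowers_le.2 zEl_ker)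
  refine ⟨Cov3, inferInstance, inferInstance, proj3, ⟨proj3_surjective, ker3_le_center, ?_⟩, ?_⟩
  · rw [hker, Subgroup.zpowers_le]
    exact zEl_mem_commutator
  · rw [hker, Nat.card_zpowers]
    refine orderOf_eq_prime ?_ fun e => sh_zEl (by rw [e]; rfl)
    refine ker3_ext (pow_mem zEl_ker 3) (one_mem _) ?_
    show ((zEl ^ 3).1.1 (0, 0)).2 = (0 : K3)
    rw [pow_succ, pow_two]
    show (zEl.1.1 (zEl.1.1 (zEl.1.1 (0, 0)))).2 = _
    rw [mem_ker3 zEl_ker, mem_ker3 zEl_ker, mem_ker3 zEl_ker, zero_add]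
    generalize sh zEl.1.1 0 = a
    revert a
    decide

end Cfsg.Agent.OmegaSevenCover
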