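import Cfsg.Agent.SchurSmall.AltPullback

/-!
A perfect permutation group with an involution made of an odd number of pairs of transpositions has
a double cover, pulled back from that of the alternating group.
-/

set_option autoImplicit false
set_option linter.style.haveILetI false

namespace Cfsg.Agent.OmegaSevenCover

open Equiv Equiv.Perm
open scoped commutatorElement
open Cfsg.Agent.SchurSmall (sq_lift_double)

/-- The points of a pair of transpositions. -/
def quadPts {α : Type*} (q : α × α × α × α) : List α := [q.1, q.2.1, q.2.2.1, q.2.2.2]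

/-- A pair of transpositions. -/
def quadPerm {α : Type*} [DecidableEq α] (q : α × α × α × α) : Perm α :=
  swap q.1 q.2.1 * swap q.2.2.1 q.2.2.2

theorem quadProd_fix {α : Type*} [DecidableEq α] (L : List (α × α × α × α)) {x : α}
    (hx : x ∉ L.flatMap quadPts) : (L.map quadPerm).prod x = x := by
  induction L with
  | nil => rfl
  | cons q L ih =>
    simp only [List.flatMap_cons, List.mem_append, not_or, quadPts, List.mem_cons,
      List.not_mem_nil] at hx
    obtain ⟨⟨h1, h2, h3, h4, -⟩, hL⟩ := hx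
    rw [List.map_cons, List.prod_cons, Perm.mul_apply, ih hL, quadPerm, Perm.mul_apply,
      swap_apply_of_ne_of_ne h3 h4, swap_apply_of_ne_of_ne h1 h2]

theorem exists_stem_two_of_quads {G : Type} [Group G] [Finite G] (hperf : commutator G = ⊤) {m : ℕ}
    (ψ : G →* Perm (Fin (m + 1))) (x : G) (hx : x * x = 1)
    (L : List (Fin (m + 1) × Fin (m + 1) × Fin (m + 1) × Fin (m + 1)))
    (hnd : (L.flatMap quadPts).Nodup) (hodd : Odd L.length) (hm : 11 ≤ m)
    (hψ : ψ x = (L.map quadPerm).prod) :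
    ∃ (W : Type) (_ : Group W) (_ : Finite W) (σ : W →* G),
      Cfsg.IsStemExtension σ ∧ Nat.card σ.ker = 2 := by
  obtain ⟨H, _, _, z, π₀, hz, hzc, hsurj, hker, hcen, ⟨u, v, -, -, huv⟩, -⟩ :=
    SporB.DoubleCover.exists_cover (m + 1) (by omega)
  let π : H →* Perm (Fin (m + 1)) := (alternatingGroup (Fin (m + 1))).subtype.comp π₀
  have hkπ : π.ker = Subgroup.zpowers z := by
    rw [← hker]; exact MonoidHom.ker_comp_of_injective π₀ _ (Subgroup.subtype_injective _)
  have hr : π.range = alternatingGroup (Fin (m + 1)) := by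
    rw [MonoidHom.range_comp, MonoidHom.range_eq_top.2 hsurj, ← MonoidHom.range_eq_map,
      Subgroup.range_subtype]
  have hzz : z * z = 1 := by rw [← pow_two, ← hz, pow_orderOf_eq_one]
  have hz1 : z ≠ 1 := fun h => by rw [h, orderOf_one] at hz; omega
  have hk2 : ∀ w ∈ π.ker, w = 1 ∨ w = z := by
    intro w hw
    rw [hkπ] at hw
    obtain ⟨k, rfl⟩ := Subgroup.mem_zpowers_iff.1 hw
    rw [← zpow_mod_orderOf, hz]
    rcases Int.emod_two_eq_zero_or_one k with h | h <;> simp [h]
  have hc : π.ker ≤ Subgroup.center H := hkπ ▸ Subgroup.zpowers_le.2 hzc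
  have hd : π.ker ≤ commutator H := by
    rw [hkπ, Subgroup.zpowers_le]
    have e : z = ⁅u, v⁆ := by rw [commutatorElement_def, huv]; group
    rw [e]
    exact Subgroup.commutator_mem_commutator (Subgroup.mem_top u) (Subgroup.mem_top v)
  have hu2 : ∀ w ∈ π.ker, w * w = 1 := fun w hw => by
    rcases hk2 w hw with rfl | rfl
    · exact one_mul 1
    · exact hzz
  have hne : π.ker ≠ ⊥ := by rw [hkπ, Ne, Subgroup.zpowers_eq_bot]; exact hz1
  have key : ∀ L : List (Fin (m + 1) × Fin (m + 1) × Fin (m + 1) × Fin (m + 1)),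
      (L.flatMap quadPts).Nodup → ∃ X, π X = (L.map quadPerm).prod ∧ X * X = z ^ L.length ∧
        Perm.sign (L.map quadPerm).prod = 1 := by
    intro L
    induction L with
    | nil => exact fun _ => ⟨1, map_one π, by simp, map_one _⟩
    | cons q L ih =>
      intro hq
      rw [List.flatMap_cons, List.nodup_append] at hq
      obtain ⟨hq1, hq2, hdisj⟩ := hq
      obtain ⟨Z, hZ, hZZ, hZs⟩ := ih hq2
      simp only [quadPts, List.nodup_cons, List.mem_cons, List.not_mem_nil, or_false, not_or,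
        List.nodup_nil, and_true, not_false_eq_true] at hq1
      obtain ⟨⟨hab, hac, had⟩, ⟨hbc, hbd⟩, hcd⟩ := hq1
      have hsq : Perm.sign (quadPerm q) = 1 := by
        rw [quadPerm, map_mul, sign_swap hab, sign_swap hcd]; rfl
      obtain ⟨X₁, h₁⟩ := AltCoverComm.exists_lift π hr hsq
      have e₁ : X₁ * X₁ = z := by
        obtain ⟨hk, hn⟩ := sq_lift_double (by omega) π hr hc hd hu2 hne hab hac had hbc hbd hcd h₁
        exact (hk2 _ hk).resolve_left hn
      have hfix : ∀ i ∈ quadPts q, (L.map quadPerm).prod i = i := fun i hi =>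
        quadProd_fix L fun h => hdisj i hi i h rfl
      have hcomm : Commute X₁ Z :=
        AltCoverComm.disjoint_commute π hr hc hu2 (hfix _ (by simp [quadPts]))
          (hfix _ (by simp [quadPts])) (hfix _ (by simp [quadPts])) (hfix _ (by simp [quadPts]))
          hZs (a := q.1) (b := q.2.2.1) (c := q.2.1) (d := q.2.2.2) h₁ hZ
      refine ⟨X₁ * Z, ?_, ?_, ?_⟩
      · rw [map_mul, h₁, hZ, List.map_cons, List.prod_cons]
      · rw [← pow_two, hcomm.mul_pow, pow_two, pow_two, e₁, hZZ, List.length_cons, pow_succ']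
      · rw [List.map_cons, List.prod_cons, map_mul, hsq, hZs, one_mul]
  obtain ⟨X, hX0, hXX0, -⟩ := key L hnd
  have hX : π X = ψ x := hX0.trans hψ.symm
  have hXX : X * X = z := by
    obtain ⟨k, hk⟩ := hodd
    rw [hXX0, hk, pow_succ, pow_mul, pow_two, hzz, one_pow, one_mul]
  -- the pullback
  have hrange : ∀ g : G, ψ g ∈ π.range := fun g => by
    rw [hr, Perm.mem_alternatingGroup]
    have h : g ∈ (Perm.sign.comp ψ).ker := by
      have : commutator G ≤ (Perm.sign.comp ψ).ker :=
        Abelianization.commutator_subset_ker _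
      exact this (hperf ▸ Subgroup.mem_top g)
    exact h
  let W : Subgroup (G × H) := MonoidHom.eqLocus (ψ.comp (MonoidHom.fst G H)) (π.comp (MonoidHom.snd G H))
  let σ : W →* G := (MonoidHom.fst G H).comp W.subtype
  have hσ : Function.Surjective σ := fun g => by
    obtain ⟨h, hh⟩ := hrange g
    exact ⟨⟨(g, h), hh.symm⟩, rfl⟩
  have hmem : ∀ w : W, w ∈ σ.ker → (w.1.1 = 1 ∧ w.1.2 ∈ π.ker) := fun w hw => by
    have h1 : w.1.1 = 1 := hw
    refine ⟨h1, ?_⟩
    have h2 : ψ w.1.1 = π w.1.2 := w.2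
    rw [h1, map_one] at h2
    exact h2.symm
  have hcenW : σ.ker ≤ Subgroup.center W := fun w hw => by
    obtain ⟨h1, h2⟩ := hmem w hw
    refine Subgroup.mem_center_iff.2 fun y => Subtype.ext (Prod.ext ?_ ?_)
    · show y.1.1 * w.1.1 = w.1.1 * y.1.1
      rw [h1, mul_one, one_mul]
    · exact Subgroup.mem_center_iff.1 (hc h2) y.1.2
  let zW : W := ⟨(1, z), by
    show ψ 1 = π z
    rw [map_one, (show π z = 1 from (hkπ ▸ Subgroup.mem_zpowers z : z ∈ π.ker))]⟩
  have hkerW : ∀ w : W, w ∈ σ.ker → w = 1 ∨ w = zW := fun w hw => by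
    obtain ⟨h1, h2⟩ := hmem w hw
    rcases hk2 _ h2 with h | h
    · exact Or.inl (Subtype.ext (Prod.ext h1 h))
    · exact Or.inr (Subtype.ext (Prod.ext h1 h))
  have hzW2 : zW * zW = 1 := Subtype.ext (Prod.ext (one_mul 1) hzz)
  have hzWker : σ.ker = Subgroup.zpowers zW := by
    refine le_antisymm (fun w hw => ?_) (Subgroup.zpowers_le.2 rfl)
    rcases hkerW w hw with rfl | rfl
    · exact one_mem _
    · exact Subgroup.mem_zpowers zW
  have hzW1 : zW ≠ 1 := fun h => hz1 (congrArg (fun w : W => w.1.2) h)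
  have hcard : Nat.card σ.ker = 2 := by
    rw [hzWker, Nat.card_zpowers]
    exact orderOf_eq_prime (by rw [pow_two, hzW2]) hzW1
  refine ⟨W, inferInstance, inferInstance, σ, ⟨hσ, hcenW, ?_⟩, hcard⟩
  rw [hzWker, Subgroup.zpowers_le]
  by_contra hz'
  have hker' : ∀ w : W, w ∈ σ.ker → w ∈ commutator W → w = 1 := fun w hw hw' =>
    (hkerW w hw).resolve_right fun h => hz' (h ▸ hw')
  have hmap : (commutator W).map σ = ⊤ := by
    rw [commutator_def, Subgroup.map_commutator, Subgroup.map_top_of_surjective σ hσ, ← commutator_def,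
      hperf]
  obtain ⟨w, hw, hwx⟩ := Subgroup.mem_map.1 (hmap ▸ Subgroup.mem_top x : x ∈ (commutator W).map σ)
  have hw2 : w * w = 1 := hker' _ (show σ (w * w) = 1 by rw [map_mul, hwx, hx]) (mul_mem hw hw)
  let wX : W := ⟨(x, X), hX.symm⟩
  have hd' : w⁻¹ * wX ∈ σ.ker := by
    show σ (w⁻¹ * wX) = 1
    rw [map_mul, map_inv, hwx]
    exact inv_mul_cancel x
  have hwX : wX * wX = 1 := by
    have hc' := Subgroup.mem_center_iff.1 (hcenW hd') w
    have e : wX = w * (w⁻¹ * wX) := by group
    calc wX * wX = (w * (w⁻¹ * wX)) * (w * (w⁻¹ * wX)) := by rw [← e]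
      _ = (w * w) * ((w⁻¹ * wX) * (w⁻¹ * wX)) := by
        rw [mul_assoc, ← mul_assoc (w⁻¹ * wX), ← hc']; simp only [mul_assoc]
      _ = 1 := by
        rw [hw2, one_mul]
        rcases hkerW _ hd' with h | h <;> rw [h]
        · exact one_mul 1
        · exact hzW2
  exact hz1 (hXX.symm.trans (congrArg (fun w : W => w.1.2) hwX))

end Cfsg.Agent.OmegaSevenCover
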