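import Cfsg.Agent.OmegaSevenCover.Points
import Cfsg.Agent.OmegaSevenCover.Quads

/-!
The double cover of the simple orthogonal group in dimension seven over three elements.
-/

set_option autoImplicit false
set_option maxRecDepth 20000
set_option linter.style.haveILetI false

namespace Cfsg.Agent.OmegaSevenCover

open Matrix
open Cfsg.Agent.O73 (K3 Ix)

/-- An involution negating two orthogonal vectors. -/
def invol : OmG := elemL [814, 1358]

/-- The pairs of transpositions of the involution. -/
def involQuads : List (Fin 378 × Fin 378 × Fin 378 × Fin 378) :=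
  [(0, 200, 1, 144), (2, 86, 3, 141), (4, 301, 6, 237), (7, 259, 8, 72), (9, 340, 10, 173), (11, 168, 12, 125), (13, 224, 14, 366), (15, 279, 16, 374), (17, 223, 18, 280), (19, 180, 20, 43), (21, 167, 22, 319), (23, 116, 24, 230), (25, 210, 27, 356), (28, 162, 29, 192), (31, 349, 32, 309), (33, 56, 34, 229), (35, 204, 36, 92), (37, 337, 38, 288), (39, 214, 40, 221), (41, 358, 42, 282), (44, 113, 46, 106), (47, 190, 48, 118), (49, 103, 50, 294), (51, 377, 52, 100), (53, 242, 54, 368), (55, 177, 57, 147), (58, 270, 60, 208), (61, 353, 62, 93), (63, 248, 64, 160), (65, 183, 66, 139), (67, 251, 68, 306), (69, 261, 70, 83), (73, 79, 74, 187), (75, 152, 77, 245), (78, 332, 80, 297), (81, 314, 82, 195), (84, 143, 85, 324), (87, 322, 88, 263), (90, 291, 94, 287), (95, 216, 96, 351), (97, 206, 98, 304), (99, 327, 101, 122), (102, 155, 104, 371), (105, 317, 107, 372), (108, 335, 109, 157), (111, 178, 112, 234), (114, 275, 115, 212), (117, 354, 119, 278), (120, 188, 121, 313), (123, 281, 126, 346), (127, 257, 128, 170), (129, 299, 130, 227), (131, 150, 132, 365), (133, 269, 134, 164),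 (135, 293, 136, 233), (137, 158, 138, 236), (142, 341, 145, 260), (146, 305, 148, 239), (149, 218, 151, 344), (153, 296, 159, 362), (161, 290, 163, 350), (165, 266, 166, 359), (169, 370, 171, 254), (172, 376, 174, 339), (175, 302, 181, 215), (184, 284, 185, 197), (186, 315, 189, 203), (193, 209, 196, 272), (198, 277, 199, 312), (202, 276, 207, 308), (213, 318, 219, 238), (222, 369, 225, 373), (226, 252, 228, 352), (231, 355, 232, 264), (235, 336, 240, 345), (241, 253, 244, 333), (246, 363, 247, 265), (250, 325, 255, 330), (256, 347, 262, 300), (267, 328, 268, 364), (271, 286, 273, 321), (274, 283, 285, 311), (292, 360, 298, 342), (303, 338, 310, 320), (329, 361, 331, 343)]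

theorem invol_good : goodList [814, 1358] = true := by decide +kernel

theorem mG_invol : mG invol = reflM 814 * reflM 1358 := by
  rw [invol, mG_elemL invol_good]
  simp

theorem invol_sq : invol * invol = 1 := by
  apply mG_injective
  rw [mG_mul, mG_invol]
  show reflM 814 * reflM 1358 * (reflM 814 * reflM 1358) = 1
  decide +kernel

theorem invol_perm : pointHom invol = (involQuads.map quadPerm).prod := by
  have h : ∀ k : Fin 378, idx2 ((reflM 814).mulVec ((reflM 1358).mulVec (pt2 k))) =
      (involQuads.map quadPerm).prod k := by
    decide +kernel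
  refine Equiv.ext fun k => ?_
  show idx2 ((mG invol).mulVec (pt2 k)) = _
  rw [mG_invol, ← Matrix.mulVec_mulVec, h]

theorem exists_stem_two :
    ∃ (W : Type) (_ : Group W) (_ : Finite W) (σ : W →* OmG),
      Cfsg.IsStemExtension σ ∧ Nat.card σ.ker = 2 := by
  haveI : Finite OmG := Nat.finite_of_card_ne_zero (by rw [card_OmG]; norm_num)
  exact exists_stem_two_of_quads perfect_OmG (m := 377) pointHom invol invol_sq involQuads
    (by decide +kernel) (by decide) (by norm_num) invol_perm

end Cfsg.Agent.OmegaSevenCover
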