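import Cfsg.Agent.OmegaSevenCover.Upper
import Cfsg.Agent.OmegaSevenCover.Two
import Cfsg.Agent.OmegaSevenCover.Three
import Cfsg.Agent.Classical.OrthFinal
import Mathlib.FieldTheory.Finite.GaloisField

/-!
The Schur multiplier of the simple orthogonal group in dimension seven over three elements.
-/

set_option autoImplicit false
set_option linter.style.haveILetI false

namespace Cfsg.Agent.OmegaSevenCover

open Cfsg
open scoped Matrix

theorem card_schurMult_omg : Nat.card (CentralExt.schurMult OmG) = 6 := by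
  haveI : Finite OmG := Nat.finite_of_card_ne_zero (by rw [card_OmG]; norm_num)
  obtain ⟨W₂, _, _, σ₂, h₂, c₂⟩ := exists_stem_two
  obtain ⟨W₃, _, _, σ₃, h₃, c₃⟩ := exists_stem_three
  have d₂ := CentralExt.card_ker_dvd_schurMult h₂
  have d₃ := CentralExt.card_ker_dvd_schurMult h₃
  rw [c₂] at d₂
  rw [c₃] at d₃
  exact Nat.dvd_antisymm schurMult_dvd_six
    (Nat.Coprime.mul_dvd_of_dvd_of_dvd (by norm_num : Nat.Coprime 2 3) d₂ d₃)

theorem hasCyclicSchurMultiplier_omg : Cfsg.HasCyclicSchurMultiplier OmG 6 := by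
  haveI : Finite OmG := Nat.finite_of_card_ne_zero (by rw [card_OmG]; norm_num)
  rw [CentralExt.hasCyclicSchurMultiplier_iff]
  refine ⟨?_, card_schurMult_omg⟩
  haveI : Fact (Nat.Prime 2) := ⟨Nat.prime_two⟩
  haveI : Fact (Nat.Prime 3) := ⟨Nat.prime_three⟩
  obtain ⟨a, ha⟩ := exists_prime_orderOf_dvd_card' (G := CentralExt.schurMult OmG) 2
    (by rw [card_schurMult_omg]; norm_num)
  obtain ⟨b, hb⟩ := exists_prime_orderOf_dvd_card' (G := CentralExt.schurMult OmG) 3
    (by rw [card_schurMult_omg]; norm_num)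
  refine isCyclic_of_orderOf_eq_card (a * b) ?_
  rw [(Commute.all a b).orderOf_mul_eq_mul_orderOf_of_coprime (by rw [ha, hb]; norm_num), ha, hb,
    card_schurMult_omg]

variable {F : Type*} [Field F]

theorem map_mem_iff (e : F ≃+* ZMod 3) (g : GL (Unit ⊕ (Fin 3 ⊕ Fin 3)) F) :
    Units.mapEquiv (RingEquiv.mapMatrix e).toMulEquiv g ∈
        isometryGroup (ZMod 3) (quadFormOdd 3 (ZMod 3)) ↔
      g ∈ isometryGroup F (quadFormOdd 3 F) := by
  have hq : ∀ v : Unit ⊕ (Fin 3 ⊕ Fin 3) → F, quadFormOdd 3 (ZMod 3) (e ∘ v) = e (quadFormOdd 3 F v) :=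
    fun v => by simp [quadFormOdd, map_sum]
  have hm : ∀ v : Unit ⊕ (Fin 3 ⊕ Fin 3) → F,
      (g.1.map e) *ᵥ (e ∘ v) = e ∘ (g.1 *ᵥ v) := fun v => by
    funext i
    exact (RingHom.map_mulVec e.toRingHom g.1 v i).symm
  constructor
  · intro h u w
    have h1 := h (e ∘ u) (e ∘ w)
    refine e.injective ?_
    simp only [← hq, Units.coeHom_apply]
    rw [← hm]
    exact h1
  · intro h u w
    obtain ⟨u, rfl⟩ : ∃ u', u = e ∘ u' := ⟨e.symm ∘ u, by funext i; simp⟩
    show quadFormOdd 3 (ZMod 3) ((g.1.map e) *ᵥ (e ∘ u)) = quadFormOdd 3 (ZMod 3) (e ∘ u)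
    rw [hm, hq, hq]
    exact congrArg e (h u (fun _ => 0))

/-- The isometry groups agree. -/
def isoEquiv (e : F ≃+* ZMod 3) :
    isometryGroup F (quadFormOdd 3 F) ≃* isometryGroup (ZMod 3) (quadFormOdd 3 (ZMod 3)) :=
  ((Units.mapEquiv (RingEquiv.mapMatrix e).toMulEquiv).subgroupMap _).trans (MulEquiv.subgroupCongr (by
    ext x
    obtain ⟨g, rfl⟩ := (Units.mapEquiv
      (RingEquiv.mapMatrix (m := Unit ⊕ (Fin 3 ⊕ Fin 3)) e).toMulEquiv).surjective x
    rw [map_mem_iff]
    exact Subgroup.mem_map_iff_mem (MulEquiv.injective _)))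

/-- The multiplier over any field with three elements. -/
theorem hasCyclicSchurMultiplier_pomega [Fintype F] (hF : Fintype.card F = 3) :
    HasCyclicSchurMultiplier (POmega F (quadFormOdd 3 F)) 6 := by
  have e : F ≃+* ZMod 3 := (ZMod.ringEquivOfPrime F Nat.prime_three hF).symm
  let E := isoEquiv e
  let Ψ : Omega F (quadFormOdd 3 F) ≃* OmG :=
    (E.subgroupMap _).trans (MulEquiv.subgroupCongr (Classical.map_commutator_top_of_equiv E))
  let Θ : POmega F (quadFormOdd 3 F) ≃* OmG :=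
    (Classical.centerQuotientEquiv Ψ).trans
      ((QuotientGroup.quotientMulEquivOfEq center_OmG).trans QuotientGroup.quotientBot)
  exact CentralExt.hasSchurMultiplier_congr Θ.symm hasCyclicSchurMultiplier_omg

end Cfsg.Agent.OmegaSevenCover
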