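import Cfsg.Agent.OmegaSevenThree.Group
import Cfsg.Agent.SporB.FiTwoTwoO.Lines
import Cfsg.Agent.SchurSmall.PackMat
import Cfsg.Agent.ClassicalMax.OmegaProper
import Cfsg.Agent.Refl.Basic

/-!
The simple orthogonal group in dimension seven over three elements as a matrix group with eight
generators.
-/

set_option autoImplicit false
set_option maxRecDepth 20000
set_option linter.style.haveILetI false

namespace Cfsg.Agent.OmegaSevenCover

open Matrix
open Cfsg.Agent.O73 (K3 Ix OG mt mkO Jf)
open Cfsg.Agent.SporB.FischerO (vecN lineHom lineN levels chain_valid refl8 matRows rowsMat)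

/-- The quadratic form. -/
abbrev qK : (Ix → K3) → K3 := Cfsg.quadFormOdd 3 K3

/-- The group. -/
abbrev OmG : Type := ↥(Cfsg.Omega K3 qK)

/-- A fixed vector of value one. -/
def one0 : Ix → K3 := Pi.single (.inl ()) 1

/-- A vector of non-zero value with a given number. -/
def rvec (n : ℕ) : Ix → K3 := if qK (vecN n) = 0 then one0 else vecN n

theorem rvec_ne (n : ℕ) : qK (rvec n) ≠ 0 := by
  unfold rvec
  split_ifs with h
  · decide
  · exact h

/-- The reflection in that vector. -/
def reflM (n : ℕ) : Matrix Ix Ix K3 := Cfsg.reflectionMatrix qK (rvec n)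

theorem reflM_gram (n : ℕ) : (reflM n).transpose * Jf * reflM n = Jf := by
  refine (O73.preserves_iff _).1 fun v => ?_
  have h := Refl.reflectionMatrix_preserves (Classical.oddQF 3 K3) (rvec n) v
  rw [O73.qf_eq] at h
  exact h

/-- The reflection as an isometry. -/
def reflO (n : ℕ) : OG := mkO (reflM n) (reflM_gram n)

/-- A product of reflections. -/
def reflsO (l : List ℕ) : OG := (l.map reflO).prod

theorem mt_reflsO (l : List ℕ) : mt (reflsO l) = (l.map reflM).prod := by
  induction l with
  | nil => rfl
  | cons n l ih =>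
    rw [List.map_cons, List.prod_cons, ← ih]
    rfl

/-- A list of vectors whose reflections multiply into the commutator subgroup. -/
def goodList (l : List ℕ) : Bool :=
  decide (l.length % 2 = 0 ∧ (l.map fun n => qK (rvec n)).prod = 1)

theorem reflsO_mem {l : List ℕ} (h : goodList l = true) : reflsO l ∈ Cfsg.Omega K3 qK := by
  rw [goodList, decide_eq_true_eq] at h
  rw [O73.mem_omega]
  let l' : List {x : Ix → K3 // Classical.oddQF 3 K3 x ≠ 0} :=
    l.map fun n => ⟨rvec n, by rw [O73.qf_eq]; exact rvec_ne n⟩
  have hth := O73.theta_reflections (reflsO l) l' (by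
    rw [mt_reflsO, List.map_map]; rfl) (by rw [List.length_map]; exact Nat.even_iff.2 h.1)
  refine Prod.ext hth.1 (hth.2.2 ?_)
  have e : (l'.map fun x => Classical.oddQF 3 K3 x.1) = l.map fun n => qK (rvec n) := by
    rw [List.map_map]
    exact List.map_congr_left fun n _ => congrFun O73.qf_eq (rvec n)
  rw [e, h.2]
  exact IsSquare.one

/-- The element given by a good list. -/
def elemL (l : List ℕ) : OmG := if h : goodList l = true then ⟨reflsO l, reflsO_mem h⟩ else 1

/-- The matrix of an element. -/
abbrev mG (g : OmG) : Matrix Ix Ix K3 := mt (g : OG)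

theorem mG_mul (g h : OmG) : mG (g * h) = mG g * mG h := rfl

theorem mG_injective : Function.Injective mG := fun _ _ h => Subtype.ext (O73.mt_injective h)

theorem mG_elemL {l : List ℕ} (h : goodList l = true) : mG (elemL l) = (l.map reflM).prod := by
  rw [elemL, dif_pos h]
  exact mt_reflsO l

theorem center_OmG : Subgroup.center OmG = ⊥ :=
  RecogA.center_Omega_odd_eq_bot (by decide) (by decide)

/-- The simple group is this group. -/
noncomputable def omgEquiv : OmG ≃* Cfsg.POmega K3 qK :=
  MulEquiv.ofBijective (QuotientGroup.mk' (Subgroup.center OmG))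
    ⟨(injective_iff_map_eq_one _).2 fun x hx => by
      have := (QuotientGroup.eq_one_iff x).1 hx
      rwa [center_OmG] at this, QuotientGroup.mk'_surjective _⟩

theorem card_OmG : Nat.card OmG = 4585351680 := by
  rw [Nat.card_congr omgEquiv.toEquiv]
  exact SporB.FischerO.card_pOmega

theorem perfect_OmG : commutator OmG = ⊤ := by
  have h2 : (2 : K3) ≠ 0 := by decide
  have hO := ClassicalMax.omega7_commutator (F := K3) h2
  rw [eq_top_iff]
  rintro x -
  have hinj : Function.Injective
      ((Cfsg.isometryGroup K3 qK).subtype.comp (Cfsg.Omega K3 qK).subtype) :=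
    (Subgroup.subtype_injective _).comp (Subgroup.subtype_injective _)
  refine (Subgroup.mem_map_iff_mem hinj).1 ?_
  rw [commutator_def, Subgroup.map_commutator, ← MonoidHom.range_eq_map, MonoidHom.range_comp,
    Subgroup.range_subtype]
  show _ ∈ ⁅ClassicalMax.omega7 K3, ClassicalMax.omega7 K3⁆
  rw [hO]
  exact ⟨x.1, x.2, rfl⟩

/-- Reflection lists of the eight generators. -/
def negLists : List (List ℕ) :=
  [[1943, 1485, 122, 1497, 881, 1918, 1338, 907],
  [1728, 1943, 122, 1497, 881, 1918, 1338, 907],
  [495, 1943, 122, 1497, 881, 1918, 1338, 907],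
  [408, 1943, 122, 1497, 881, 1918, 1338, 907],
  [1676, 1943, 122, 1497, 881, 1918, 1338, 907],
  [1943, 924, 122, 1497, 881, 1918, 1338, 907],
  [2166, 1943, 122, 1497, 881, 1918, 1338, 907],
  [840, 1943, 122, 1497, 881, 1918, 1338, 907]]

/-- The eight generators. -/
def negR (j : Fin 8) : OmG := elemL (negLists.getD j [])

theorem negLists_good : ∀ j : Fin 8, goodList (negLists.getD j []) = true := by decide +kernel

theorem negR_check : ∀ j : Fin 8,
    (negLists.getD j []).foldr
        (fun n acc => SchurSmall.PackMat.mulCode 3 7 (SchurSmall.PackMat.enc O73.posEquiv (reflM n)) acc)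
        (SchurSmall.PackMat.enc O73.posEquiv (1 : Matrix Ix Ix K3)) =
      SchurSmall.PackMat.enc O73.posEquiv (-rowsMat (matRows.getD j [])) := by
  decide +kernel

theorem enc_prod (l : List ℕ) :
    SchurSmall.PackMat.enc O73.posEquiv (l.map reflM).prod =
      l.foldr (fun n acc => SchurSmall.PackMat.mulCode 3 7
        (SchurSmall.PackMat.enc O73.posEquiv (reflM n)) acc)
        (SchurSmall.PackMat.enc O73.posEquiv (1 : Matrix Ix Ix K3)) := by
  induction l with
  | nil => rfl
  | cons n l ih =>
    rw [List.map_cons, List.prod_cons, SchurSmall.PackMat.enc_mul _ (by norm_num), ih]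
    rfl

theorem mG_negR (j : Fin 8) : mG (negR j) = -rowsMat (matRows.getD j []) := by
  apply SchurSmall.PackMat.enc_injective O73.posEquiv (by norm_num : (3 : ℕ) ≤ 32)
  rw [negR, mG_elemL (negLists_good j), enc_prod]
  exact negR_check j

/-- Negated maps move lines alike. -/
theorem lineHom_negR (j : Fin 8) : lineHom (negR j : OG) = lineHom (refl8 j) := by
  refine Equiv.ext fun k => ?_
  show SporB.FischerO.idx ((mG (negR j)).mulVec (SporB.FischerO.pt k)) =
    SporB.FischerO.idx ((rowsMat (matRows.getD j [])).mulVec (SporB.FischerO.pt k))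
  rw [mG_negR, Matrix.neg_mulVec, ← neg_one_smul K3]
  exact SporB.FischerO.idx_smul (by decide)
    ((SporB.FischerO.rowsMat_qf j _).trans (SporB.FischerO.qf_pt k))

theorem closure_negR : Subgroup.closure (Set.range negR) = ⊤ := by
  classical
  haveI : Finite OmG := Nat.finite_of_card_ne_zero (by rw [card_OmG]; norm_num)
  set H := Subgroup.closure (Set.range negR)
  set f : OmG →* Equiv.Perm (Fin 351) := lineHom.comp (Cfsg.Omega K3 qK).subtype
  let σ : ℕ → Equiv.Perm (Fin 351) := fun l => if h : l - 1 < 8 then lineHom (refl8 ⟨l - 1, h⟩) else 1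
  have hl : ∀ l ∈ [1, 2, 3, 4, 5, 6, 7, 8], l - 1 < 8 ∧ l - 1 + 1 = l := fun l hl => by
    simp only [List.mem_cons, List.not_mem_nil, or_false] at hl; omega
  have hσ : ∀ l ∈ [1, 2, 3, 4, 5, 6, 7, 8], ∀ i, (σ l i : ℕ) = lineN l i := fun l h i => by
    simp only [σ, dif_pos (hl l h).1, SporB.FischerO.lineHom_refl]
    rw [(hl l h).2]
  have hR : ∀ l ∈ [1, 2, 3, 4, 5, 6, 7, 8], σ l ∈ H.map f := fun l h => by
    simp only [σ, dif_pos (hl l h).1]
    exact ⟨negR ⟨l - 1, (hl l h).1⟩, Subgroup.subset_closure ⟨_, rfl⟩, lineHom_negR _⟩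
  have h1 : 4585351680 ≤ Nat.card (H.map f) :=
    (show 4585351680 = CosetEnum.chainProd levels by decide +kernel).le.trans
      (CosetEnum.chainProd_le_card lineN _ σ hσ (H.map f) hR levels chain_valid)
  have h2 : Nat.card (H.map f) ≤ Nat.card H :=
    Nat.card_le_card_of_surjective _ (f.subgroupMap_surjective H)
  refine Subgroup.eq_top_of_le_card H ?_
  rw [card_OmG]
  exact h1.trans h2

end Cfsg.Agent.OmegaSevenCover
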