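import Cfsg.Agent.OmegaSevenCover.Model
import Cfsg.Agent.OmegaSevenCover.ThreeData

/-!
The action on the 378 points of value one.
-/

set_option autoImplicit false
set_option maxRecDepth 20000

namespace Cfsg.Agent.OmegaSevenCover

open Matrix Cfsg.Agent.CosetCert
open Cfsg.Agent.O73 (K3 Ix OG mt)
open Cfsg.Agent.SporB.FischerO (vecN enc qN twiceN mulN matRows rowsMat)

/-- Point of a vector. -/
noncomputable def idx2 (v : Ix → K3) : Fin 378 :=
  ⟨idxT2.get 16 (enc v) % 378, Nat.mod_lt _ (Nat.succ_pos _)⟩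

/-- Representative of a point. -/
noncomputable def pt2 (k : Fin 378) : Ix → K3 := vecN (ptT2.get 16 k.val)

theorem pt2_lt : ∀ k : Fin 378, ptT2.get 16 k < 2187 ∧ qN (ptT2.get 16 k) = 1 ∧
    idxT2.get 16 (ptT2.get 16 k) = k ∧ idxT2.get 16 (twiceN (ptT2.get 16 k)) = k ∧
    twiceN (ptT2.get 16 k) < 2187 := by
  decide +kernel

theorem qK_pt2 (k : Fin 378) : qK (pt2 k) = 1 := by
  rw [pt2, show qK (vecN _) = _ from SporB.FischerO.qf_vecN _, (pt2_lt k).2.1]
  rfl

theorem pt2_spec (v : Ix → K3) (hv : qK v = 1) : ∃ s : K3, s ≠ 0 ∧ v = s • pt2 (idx2 v) := by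
  have hb : allB (fun n => Nat.ble 2187 n || (!Nat.beq (qN n) 1 ||
      (Nat.blt (idxT2.get 16 n) 378 && (Nat.beq n (ptT2.get 16 (idxT2.get 16 n)) ||
        Nat.beq n (twiceN (ptT2.get 16 (idxT2.get 16 n))))))) 12 0 = true := by
    decide +kernel
  have h := allB_spec_zero hb (by norm_num : 2187 ≤ 2 ^ 12) (SporB.FischerO.enc_lt v)
  rw [Bool.or_eq_true] at h
  rcases h with h | h
  · exact absurd (Nat.le_of_ble_eq_true h) (not_le.2 (SporB.FischerO.enc_lt v))
  rw [Bool.or_eq_true] at h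
  rcases h with h | h
  · exfalso
    have hq := SporB.FischerO.qf_vecN (enc v)
    rw [SporB.FischerO.vecN_enc, show SporB.FischerO.qf v = qK v from rfl, hv] at hq
    have hlt : qN (enc v) < 3 := Nat.mod_lt _ (by norm_num)
    revert h hq
    generalize qN (enc v) = q at hlt ⊢
    interval_cases q <;> decide
  rw [Bool.and_eq_true, Bool.or_eq_true] at h
  obtain ⟨hlt, h⟩ := h
  have hi : (idx2 v : ℕ) = idxT2.get 16 (enc v) := Nat.mod_eq_of_lt (Nat.le_of_ble_eq_true hlt)
  rcases h with h | h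
  · refine ⟨1, one_ne_zero, ?_⟩
    rw [one_smul, pt2, hi, ← Nat.eq_of_beq_eq_true h, SporB.FischerO.vecN_enc]
  · refine ⟨2, by decide, ?_⟩
    rw [pt2, hi, show (2 : K3) • vecN _ = _ from SporB.FischerO.twiceN_eq _,
      ← Nat.eq_of_beq_eq_true h, SporB.FischerO.vecN_enc]

theorem idx2_smul_pt (s : K3) (k : Fin 378) (hs : s ≠ 0) : idx2 (s • pt2 k) = k := by
  obtain ⟨h1, -, h2, h3, h4⟩ := pt2_lt k
  have : s = 1 ∨ s = 2 := by revert s; decide
  apply Fin.ext
  rcases this with rfl | rfl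
  · rw [one_smul]
    show idxT2.get 16 (enc (vecN _)) % 378 = _
    rw [SporB.FischerO.enc_vecN h1, h2, Nat.mod_eq_of_lt k.2]
  · rw [pt2, show (2 : K3) • vecN _ = _ from SporB.FischerO.twiceN_eq _]
    show idxT2.get 16 (enc (vecN _)) % 378 = _
    rw [SporB.FischerO.enc_vecN h4, h3, Nat.mod_eq_of_lt k.2]

theorem idx2_pt (k : Fin 378) : idx2 (pt2 k) = k := by
  simpa using idx2_smul_pt 1 k one_ne_zero

theorem idx2_smul {s : K3} (hs : s ≠ 0) {v : Ix → K3} (hv : qK v = 1) :
    idx2 (s • v) = idx2 v := by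
  obtain ⟨t, ht, e⟩ := pt2_spec v hv
  conv_lhs => rw [e]
  rw [smul_smul, idx2_smul_pt _ _ (mul_ne_zero hs ht)]

theorem qK_act (g : OmG) (v : Ix → K3) : qK ((mG g).mulVec v) = qK v := g.1.2 v v

/-- The image of a point. -/
noncomputable def move2 (g : OmG) (k : Fin 378) : Fin 378 := idx2 ((mG g).mulVec (pt2 k))

theorem move2_one (k : Fin 378) : move2 1 k = k := by
  rw [move2, show mG (1 : OmG) = 1 from rfl, Matrix.one_mulVec, idx2_pt]

theorem move2_mul (g h : OmG) (k : Fin 378) : move2 (g * h) k = move2 g (move2 h k) := by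
  obtain ⟨s, hs, e⟩ := pt2_spec _ ((qK_act h (pt2 k)).trans (qK_pt2 k))
  unfold move2
  rw [mG_mul, ← Matrix.mulVec_mulVec]
  conv_lhs => rw [e]
  rw [Matrix.mulVec_smul, idx2_smul hs ((qK_act g _).trans (qK_pt2 _))]

/-- The action on the points. -/
noncomputable def pointHom : OmG →* Equiv.Perm (Fin 378) where
  toFun g :=
    { toFun := move2 g
      invFun := move2 g⁻¹
      left_inv := fun k => by rw [← move2_mul, inv_mul_cancel, move2_one]
      right_inv := fun k => by rw [← move2_mul, mul_inv_cancel, move2_one] }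
  map_one' := Equiv.ext move2_one
  map_mul' g h := Equiv.ext fun k => move2_mul g h k

/-- The table of a generator. -/
noncomputable def genN (j k : ℕ) : ℕ := (genT.getD j (.leaf 0)).get 16 k

theorem genN_point : ∀ j : Fin 8, ∀ k : Fin 378,
    mulN (matRows.getD j []) (ptT2.get 16 k) < 2187 ∧
      idxT2.get 16 (mulN (matRows.getD j []) (ptT2.get 16 k)) % 378 = genN j k / 4 := by
  decide +kernel

theorem pointHom_negR (j : Fin 8) (k : Fin 378) : (pointHom (negR j) k : ℕ) = genN j k / 4 := by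
  show (idx2 ((mG (negR j)).mulVec (pt2 k)) : ℕ) = _
  rw [mG_negR, Matrix.neg_mulVec, ← neg_one_smul K3,
    idx2_smul (by decide) ((SporB.FischerO.rowsMat_qf j _).trans (qK_pt2 k)), pt2,
    SporB.FischerO.mulVec_vecN]
  show idxT2.get 16 (enc (vecN _)) % 378 = _
  rw [SporB.FischerO.enc_vecN (genN_point j k).1, (genN_point j k).2]

end Cfsg.Agent.OmegaSevenCover
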