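import Cfsg.Agent.OmegaSevenCover.UpperCode

/-!
Checks of certificates for the simple orthogonal group in dimension seven over three elements.
-/

set_option autoImplicit false
set_option maxRecDepth 20000

namespace Cfsg.Agent.OmegaSevenCover

open Cfsg.Agent.SchurCert Cfsg.Agent.SchurBound
open Cfsg.Agent.SchurSmall

theorem threeRank_new :
    NewOK threeRankCert.D omgCode.mul oneCode 8 threeRankCertLow threeRankCertUp :=
  ⟨by decide +kernel, by decide +kernel, by decide +kernel, by decide +kernel⟩

theorem threeRank_check : threeRankCert.check (PackMat.mulCode 3 7) oneCode = true :=
  check_of_parts 8 (by decide +kernel) (by decide +kernel) (by decide +kernel) threeRank_new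
    (by decide +kernel) (by decide +kernel)

end Cfsg.Agent.OmegaSevenCover
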