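import Cfsg.Agent.OmegaSevenCover.UpperTwo
import Cfsg.Agent.OmegaSevenCover.UpperThreeRank
import Cfsg.Agent.OmegaSevenCover.UpperThreeExp

/-!
The upper bound for the Schur multiplier of the simple orthogonal group in dimension seven over
three elements.
-/

set_option autoImplicit false
set_option maxRecDepth 20000
set_option maxHeartbeats 800000
set_option linter.style.haveILetI false

namespace Cfsg.Agent.OmegaSevenCover

open Cfsg.Agent.SchurCert Cfsg.Agent.SchurBound
open Cfsg.Agent.SchurSmall

theorem schurMult_dvd_six : Nat.card (CentralExt.schurMult OmG) ∣ 6 := by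
  haveI : Finite OmG := Nat.finite_of_card_ne_zero (by rw [card_OmG]; norm_num)
  have hpos : Nat.card (CentralExt.schurMult OmG) ≠ 0 := Nat.card_pos.ne'
  rw [← Nat.factorization_le_iff_dvd hpos (by norm_num)]
  intro p
  by_cases hp : p.Prime
  swap
  · simp [Nat.factorization_eq_zero_of_not_prime _ hp]
  rcases eq_or_ne p 2 with rfl | h2
  · refine (SchurSmall.factorization_schurMult_le omgCode (k := 1) (r := 1)
      (appliesOmG twoRankCert 2 512 8955765 Nat.prime_two rfl rfl (by norm_num) (by norm_num)
        (by decide +kernel) twoRank_check)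
      (appliesOmG twoExpCert 2 512 8955765 Nat.prime_two rfl rfl (by norm_num) (by norm_num)
        (by decide +kernel) twoExp_check)
      rfl rfl le_rfl rfl rfl rfl).trans ?_
    exact (Nat.prime_two.pow_dvd_iff_le_factorization (by norm_num)).1 (by norm_num)
  rcases eq_or_ne p 3 with rfl | h3
  · refine (SchurSmall.factorization_schurMult_le omgCode (k := 1) (r := 1)
      (appliesOmG threeRankCert 3 19683 232960 Nat.prime_three rfl rfl (by norm_num) (by norm_num)
        (by decide +kernel) threeRank_check)
      (appliesOmG threeExpCert 3 19683 232960 Nat.prime_three rfl rfl (by norm_num) (by norm_num)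
        (by decide +kernel) threeExp_check)
      rfl rfl le_rfl rfl rfl rfl).trans ?_
    exact (Nat.prime_three.pow_dvd_iff_le_factorization (by norm_num)).1 (by norm_num)
  haveI : Fact p.Prime := ⟨hp⟩
  rw [Nat.factorization_eq_zero_of_not_dvd (not_dvd_schurMult_of_sq_not_dvd p fun hsq => ?_)]
  · exact Nat.zero_le _
  rw [card_OmG, show 4585351680 = 10077696 * 455 by norm_num] at hsq
  have hco : Nat.Coprime (p ^ 2) 10077696 := by
    rw [show 10077696 = 2 ^ 9 * 3 ^ 9 by norm_num]
    exact Nat.Coprime.pow_left 2 (Nat.Coprime.mul_right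
      (Nat.Coprime.pow_right 9 ((Nat.coprime_primes hp Nat.prime_two).2 h2))
      (Nat.Coprime.pow_right 9 ((Nat.coprime_primes hp Nat.prime_three).2 h3)))
  have h455 := hco.dvd_of_dvd_mul_left hsq
  have hle : p ^ 2 ≤ 455 := Nat.le_of_dvd (by norm_num) h455
  have hlt : p < 22 := by nlinarith
  have key : ∀ q < 22, q ^ 2 ∣ 455 → q = 1 := by decide +kernel
  exact hp.ne_one (key p hlt h455)

end Cfsg.Agent.OmegaSevenCover
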