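import Cfsg.Agent.OmegaSevenCover.Model
import Cfsg.Agent.OmegaSevenCover.UpperData
import Cfsg.Agent.OmegaSevenCover.UpperLits
import Cfsg.Agent.SchurSmall.Rank
import Cfsg.Agent.SchurCert.Trivial

/-!
Codes of the matrices used in the certificates for the simple orthogonal group in dimension seven
over three elements.
-/

set_option autoImplicit false
set_option maxRecDepth 20000
set_option maxHeartbeats 800000
set_option linter.style.haveILetI false

namespace Cfsg.Agent.OmegaSevenCover

open Matrix Cfsg.Agent.SchurCert Cfsg.Agent.SchurBound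
open Cfsg.Agent.O73 (K3 Ix)
open Cfsg.Agent.SchurSmall

/-- The code of the identity. -/
def oneCode : ℕ := PackMat.enc O73.posEquiv (1 : Matrix Ix Ix K3)

/-- Codes of elements. -/
def omgCode : Code OmG where
  mul := PackMat.mulCode 3 7
  one := oneCode
  enc g := PackMat.enc O73.posEquiv (mG g)
  enc_one := rfl
  enc_mul a b := SchurSmall.PackMat.enc_mul O73.posEquiv (by norm_num) _ _
  enc_inj a b h := mG_injective (SchurSmall.PackMat.enc_injective O73.posEquiv (by norm_num) h)

/-- A witness of a code. -/
def witOK (w : ℕ × List ℕ) : Bool :=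
  goodList w.2 && Nat.beq w.1
    (w.2.foldr (fun n acc => PackMat.mulCode 3 7 (PackMat.enc O73.posEquiv (reflM n)) acc)
      (PackMat.enc O73.posEquiv (1 : Matrix Ix Ix K3)))

theorem elemWit_ok : elemWit.all witOK = true := by decide +kernel

theorem exists_code {c : ℕ} (h : c ∈ elemWit.map Prod.fst) : ∃ g : OmG, omgCode.enc g = c := by
  obtain ⟨w, hw, rfl⟩ := List.mem_map.1 h
  have hok := List.all_eq_true.1 elemWit_ok w hw
  rw [witOK, Bool.and_eq_true] at hok
  refine ⟨elemL w.2, ?_⟩
  show PackMat.enc O73.posEquiv (mG (elemL w.2)) = _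
  rw [mG_elemL hok.1, enc_prod]
  exact (Nat.eq_of_beq_eq_true hok.2).symm

/-- The element with a given code. -/
noncomputable def omgElem (c : ℕ) : OmG :=
  if h : c ∈ elemWit.map Prod.fst then (exists_code h).choose else 1

/-- All codes used by a certificate have witnesses. -/
def covered (B : BCert) : Bool :=
  (oneCode :: (B.D.gens ++ B.D.gs)).all fun c => (elemWit.map Prod.fst).contains c

theorem enc_omgElem {B : BCert} (hB : covered B = true) {L : List ℕ}
    (hL : ∀ x ∈ L, x ∈ B.D.gens ++ B.D.gs) (i : ℕ) :
    omgCode.enc (omgElem (L.getD i omgCode.one)) = L.getD i omgCode.one := by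
  have h : L.getD i omgCode.one ∈ elemWit.map Prod.fst := by
    rw [covered, List.all_eq_true] at hB
    refine List.contains_iff_mem.1 (hB _ ?_)
    by_cases hi : i < L.length
    · rw [List.getD_eq_getElem _ _ hi]
      exact List.mem_cons_of_mem _ (hL _ (List.getElem_mem hi))
    · rw [List.getD_eq_default _ _ (Nat.le_of_not_lt hi)]
      exact List.mem_cons_self
  rw [omgElem, dif_pos h]
  exact (exists_code h).choose_spec

/-- The relations of the presentation hold. -/
def relOK (D : SchurCert.Cert) (mul : ℕ → ℕ → ℕ) (one : ℕ) : Bool :=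
  (List.range D.P.n).all fun j =>
    Nat.beq (Cert.powCode mul one (D.gens.getD j one) D.P.p) (D.img mul one (D.P.powWord j)) &&
      ((List.range j).all fun i => Nat.beq (mul (D.gens.getD j one) (D.gens.getD i one))
        (mul (D.img mul one (D.P.cjWord j i)) (D.gens.getD j one)))

/-- Codes of the products of powers of the generators `s`, ..., `s + t - 1`. -/
def upperLayer (D : SchurCert.Cert) (mul : ℕ → ℕ → ℕ) (one s : ℕ) : ℕ → List ℕ
  | 0 => [one]
  | t + 1 =>
    let L := upperLayer D mul one s t
    let g := D.gens.getD (s + t) one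
    (List.range D.P.p).flatMap fun e =>
      let q := Cert.powCode mul one g e
      L.map fun x => mul x q

/-- No generator is a product of powers of the earlier ones: listed codes of the first products and
of the generators times inverses of the later products. -/
def NewOK (D : SchurCert.Cert) (mul : ℕ → ℕ → ℕ) (one ex : ℕ) (low up : List (List ℕ)) : Prop :=
  (List.range 5).all (fun s => decide (D.layer mul one s = low.getD s [])) = true ∧
    (List.range D.P.n).all (fun j => decide ((upperLayer D mul one (min 4 j) (j - min 4 j)).map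
      (fun u => mul (D.gens.getD j one) (Cert.powCode mul one u ex)) = up.getD j [])) = true ∧
    (List.range D.P.n).all (fun j => (upperLayer D mul one (min 4 j) (j - min 4 j)).all
      fun u => Nat.beq (mul u (Cert.powCode mul one u ex)) one) = true ∧
    (List.range D.P.n).all (fun j => (up.getD j []).all
      fun v => !((low.getD (min 4 j) []).any fun x => Nat.beq x v)) = true

theorem exists_split (D : SchurCert.Cert) (hg : ∀ i, ∃ a : OmG, omgCode.enc a = D.gens.getD i oneCode)
    (s : ℕ) : ∀ t x, x ∈ D.layer omgCode.mul oneCode (s + t) →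
      ∃ h u : OmG, omgCode.enc h ∈ D.layer omgCode.mul oneCode s ∧
        omgCode.enc u ∈ upperLayer D omgCode.mul oneCode s t ∧ omgCode.enc (h * u) = x := by
  have hmem : ∀ k x, x ∈ D.layer omgCode.mul oneCode k → ∃ a : OmG, omgCode.enc a = x := by
    intro k
    induction k with
    | zero =>
      intro x hx
      simp only [Cert.layer, List.mem_singleton] at hx
      exact ⟨1, omgCode.enc_one.trans hx.symm⟩
    | succ k ih =>
      intro x hx
      simp only [Cert.layer, List.mem_flatMap, List.mem_range, List.mem_map] at hx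
      obtain ⟨e, -, y, hy, rfl⟩ := hx
      obtain ⟨a, rfl⟩ := ih y hy
      obtain ⟨b, hb⟩ := hg k
      refine ⟨a * b ^ e, ?_⟩
      rw [omgCode.enc_mul, SchurCert.enc_pow, hb]
      rfl
  intro t
  induction t with
  | zero =>
    intro x hx
    obtain ⟨a, rfl⟩ := hmem _ _ hx
    refine ⟨a, 1, hx, ?_, by rw [mul_one]⟩
    rw [omgCode.enc_one]
    exact List.mem_singleton.2 rfl
  | succ t ih =>
    intro x hx
    rw [← Nat.add_assoc] at hx
    simp only [Cert.layer, List.mem_flatMap, List.mem_range, List.mem_map] at hx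
    obtain ⟨e, he, y, hy, rfl⟩ := hx
    obtain ⟨h, u, hh, hu, rfl⟩ := ih y hy
    obtain ⟨b, hb⟩ := hg (s + t)
    refine ⟨h, u * b ^ e, hh, ?_, ?_⟩
    · simp only [upperLayer, List.mem_flatMap, List.mem_range, List.mem_map]
      exact ⟨e, he, omgCode.enc u, hu, by rw [omgCode.enc_mul, SchurCert.enc_pow, hb]; rfl⟩
    · rw [← mul_assoc, omgCode.enc_mul, SchurCert.enc_pow, hb]
      rfl

theorem groupOK_of_halves {B : BCert} (ex : ℕ) {low up : List (List ℕ)} (hcov : covered B = true)
    (hrel : relOK B.D omgCode.mul oneCode = true)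
    (hnew : NewOK B.D omgCode.mul oneCode ex low up) :
    B.D.groupOK omgCode.mul oneCode = true := by
  obtain ⟨hlow, hup, hinv, hsep⟩ := hnew
  simp only [List.all_eq_true, List.mem_range, decide_eq_true_eq] at hlow hup hinv hsep
  simp only [relOK, List.all_eq_true, List.mem_range, Bool.and_eq_true] at hrel
  simp only [Cert.groupOK, List.all_eq_true, List.mem_range, Bool.and_eq_true]
  refine fun j hj => ⟨⟨(hrel j hj).1, (hrel j hj).2⟩, ?_⟩
  simp only [Bool.not_eq_true', List.any_eq_false]
  intro x hx hbeq
  have hg : ∀ i, ∃ a : OmG, omgCode.enc a = B.D.gens.getD i oneCode := fun i =>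
    ⟨_, enc_omgElem hcov (fun y hy => List.mem_append_left _ hy) i⟩
  have hj' : min 4 j + (j - min 4 j) = j := by omega
  obtain ⟨h, u, hh, hu, e⟩ := exists_split B.D hg (min 4 j) (j - min 4 j) x (hj'.symm ▸ hx)
  obtain ⟨g, hgj⟩ := hg j
  have hv : omgCode.enc (g * u ^ ex) ∈ up.getD j [] := by
    rw [← hup j hj, List.mem_map]
    exact ⟨_, hu, by rw [omgCode.enc_mul, SchurCert.enc_pow, hgj]; rfl⟩
  have hne := hsep j hj _ hv
  simp only [Bool.not_eq_true', List.any_eq_false] at hne
  rw [hlow _ (by omega)] at hh
  refine hne _ hh ?_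
  have h1 : u * u ^ ex = 1 := by
    apply omgCode.enc_inj
    rw [omgCode.enc_mul, omgCode.enc_one, SchurCert.enc_pow]
    exact Nat.eq_of_beq_eq_true (hinv j hj _ hu)
  have h2 : h * u = g := by
    apply omgCode.enc_inj
    rw [e, hgj]
    exact Nat.eq_of_beq_eq_true hbeq
  have h3 : h = g * u ^ ex := by rw [← h2, mul_assoc, h1, mul_one]
  rw [← h3]
  exact Nat.beq_refl _

theorem check_of_parts {B : BCert} (ex : ℕ) {low up : List (List ℕ)} (hcov : covered B = true)
    (hwf : B.D.P.wf = true) (hrel : relOK B.D omgCode.mul oneCode = true)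
    (hnew : NewOK B.D omgCode.mul oneCode ex low up)
    (hrows : B.D.rows.all (B.rowOK omgCode.mul oneCode) = true) (hlin : B.linOK = true) :
    B.check omgCode.mul oneCode = true := by
  simp only [BCert.check, Bool.and_eq_true]
  exact ⟨⟨⟨hwf, groupOK_of_halves ex hcov hrel hnew⟩, hrows⟩, hlin⟩

theorem appliesOmG (B : BCert) (p N m : ℕ) (hp : p.Prime) (hP : B.D.P.p = p)
    (hn : B.D.P.p ^ B.D.P.n = N) (hm : 4585351680 = N * m) (hpm : ¬ p ∣ m)
    (hcov : covered B = true) (hchk : B.check (PackMat.mulCode 3 7) oneCode = true) :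
    Applies omgCode B p (fun i => omgElem (B.D.gens.getD i omgCode.one))
      (fun i => omgElem (B.D.gs.getD i omgCode.one)) := by
  have hgen : ∀ i < B.D.P.n, omgCode.enc (omgElem (B.D.gens.getD i omgCode.one)) =
      B.D.gens.getD i omgCode.one := fun i _ =>
    enc_omgElem hcov (fun x hx => List.mem_append_left _ hx) i
  have hc := hchk
  simp only [BCert.check, Bool.and_eq_true] at hc
  obtain ⟨-, hcard⟩ := card_initGroup_of_groupOK omgCode B.D (hP.symm ▸ hp) _ hgen
    hc.1.1.1 hc.1.1.2
  refine ⟨hp, hP, hgen, enc_omgElem hcov (fun x hx => List.mem_append_right _ hx), ?_, hchk⟩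
  have h := (initGroup (fun i => omgElem (B.D.gens.getD i omgCode.one)) B.D.P.n).card_mul_index
  rw [hcard.trans hn, card_OmG, hm] at h
  have hN : 0 < N := by rcases Nat.eq_zero_or_pos N with rfl | h0 <;> omega
  rwa [Nat.eq_of_mul_eq_mul_left hN h]

end Cfsg.Agent.OmegaSevenCover
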