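import Cfsg.Agent.OmegaSevenCover.UpperCode

/-!
Checks of certificates for the simple orthogonal group in dimension seven over three elements.
-/

set_option autoImplicit false
set_option maxRecDepth 20000

namespace Cfsg.Agent.OmegaSevenCover

open Cfsg.Agent.SchurCert Cfsg.Agent.SchurBound
open Cfsg.Agent.SchurSmall

theorem twoRank_check : twoRankCert.check (PackMat.mulCode 3 7) oneCode = true := by decide +kernel
theorem twoExp_check : twoExpCert.check (PackMat.mulCode 3 7) oneCode = true := by decide +kernel

end Cfsg.Agent.OmegaSevenCover
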